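import Cfsg.Agent.Lib.TransLin.Omega

/-!
# Half-transitive linear groups of odd order: the Fitting subgroup

`D` of odd order acts faithfully on the finite `p`-torsion group `E ≠ 0` so that any two non-zero
vectors `a, b` have `d • a = ± b`. Then `F(D)` is cyclic and its non-identity elements fix no
non-zero vector. We follow `Cfsg.Agent.Lib.TransLin` (which treats the case of `D` transitive on the
non-zero vectors) replacing `2 E = 0` by the invertibility of `s` on `E`.
-/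

set_option autoImplicit false
set_option linter.style.haveILetI false
set_option linter.unusedSectionVars false

namespace Cfsg.Agent.Lib.HalfTrans.Fit

open Cfsg Cfsg.Agent.Lib.TransLin.Basic Cfsg.Agent.Lib.TransLin.Proj
  Cfsg.Agent.Lib.TransLin.Extra Cfsg.Agent.Lib.TransLin.Cover Cfsg.Agent.Lib.TransLin.Omega
open Cfsg.Agent.Lib.PGroups
open scoped Pointwise commutatorElement

variable {D E : Type*} [Group D] [AddCommGroup E] [DistribMulAction D E]

/-- The hypothesis: any two non-zero vectors are conjugate up to sign. -/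
def HalfTrans (D E : Type*) [Group D] [AddCommGroup E] [DistribMulAction D E] : Prop :=
  ∀ a b : E, a ≠ 0 → b ≠ 0 → ∃ d : D, d • a = b ∨ d • a = -b

/-- `b` lies in the image under `d` of a subgroup containing `a`, if `d • a = ± b`. -/
theorem mem_smul_of_pm {U : AddSubgroup E} {a b : E} {d : D} (ha : a ∈ U)
    (h : d • a = b ∨ d • a = -b) : b ∈ d • U := by
  rcases h with h | h
  · rw [← h]; exact AddSubgroup.smul_mem_pointwise_smul a d U ha
  · have h1 : b = d • (-a) := by rw [smul_neg, h, neg_neg]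
    rw [h1]
    exact AddSubgroup.smul_mem_pointwise_smul (-a) d U (U.neg_mem ha)

/-- The key step: a minimal member is `D`-invariant. -/
theorem smul_eq_of_minimal' (htrans : HalfTrans D E)
    {B : Subgroup D} (hB : B.Normal) (hab : ∀ x ∈ B, ∀ y ∈ B, x * y = y * x)
    {U : AddSubgroup E} (hU : Minimal (IsFixFam B) U) (d : D) : d • U = U := by
  by_contra hne
  have hdU := minimal_smul hB hU d
  have hdisj : ∀ x, x ∈ U → x ∈ d • U → x = 0 := by
    intro x hx hx'
    by_contra hx0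
    exact hne (minimal_eq_of_mem hdU hU hx0 hx' hx)
  obtain ⟨v, hvU, hv0⟩ := exists_mem_ne_zero_of_ne_bot hU.1.1
  obtain ⟨w, hwU, hw0⟩ := exists_mem_ne_zero_of_ne_bot hdU.1.1
  have hvw : v + w ≠ 0 := by
    intro h
    have hw' : w = -v := by
      rw [eq_neg_iff_add_eq_zero, add_comm]; exact h
    exact hw0 (hdisj w (hw' ▸ U.neg_mem hvU) hwU)
  obtain ⟨g, hg⟩ := htrans v (v + w) hv0 hvw
  have hgU := minimal_smul hB hU g
  have hmem : v + w ∈ g • U := mem_smul_of_pm hvU hg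
  obtain ⟨-, S₁, hS₁, hS₁e⟩ := hU.1
  obtain ⟨-, S₂, hS₂, hS₂e⟩ := hdU.1
  obtain ⟨-, S₃, hS₃, hS₃e⟩ := hgU.1
  have hfix : ∀ h ∈ S₃, h • v = v ∧ h • w = w := by
    intro h hh
    have hvw' : h • (v + w) = v + w := by
      have : v + w ∈ fixA (E := E) S₃ := hS₃e ▸ hmem
      exact this h hh
    rw [smul_add] at hvw'
    have h1 : h • v ∈ U := by
      rw [hS₁e] at hvU ⊢
      exact smul_mem_fixA hab hS₁ (hS₃ hh) hvU
    have h2 : h • w ∈ d • U := by
      rw [hS₂e] at hwU ⊢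
      exact smul_mem_fixA hab hS₂ (hS₃ hh) hwU
    have h3 : h • v - v = w - h • w := by
      rw [sub_eq_sub_iff_add_eq_add, hvw', add_comm]
    have h4 : h • v - v = 0 := by
      apply hdisj
      · exact U.sub_mem h1 hvU
      · rw [h3]; exact (d • U).sub_mem hwU h2
    have h5 : h • v = v := sub_eq_zero.1 h4
    refine ⟨h5, ?_⟩
    rw [h5] at hvw'
    exact add_left_cancel hvw'
  have hv' : v ∈ g • U := by
    rw [hS₃e]; exact fun h hh => (hfix h hh).1
  have hw' : w ∈ g • U := by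
    rw [hS₃e]; exact fun h hh => (hfix h hh).2
  have e1 := minimal_eq_of_mem hU hgU hv0 hvU hv'
  have e2 := minimal_eq_of_mem hdU hgU hw0 hwU hw'
  exact hne (e2.trans e1.symm)

/-- Non-identity elements of an abelian normal subgroup are fixed-point-free. -/
theorem fpf_of_abelian_normal' [Finite E] [FaithfulSMul D E] (htrans : HalfTrans D E)
    {B : Subgroup D} (hB : B.Normal) (hab : ∀ x ∈ B, ∀ y ∈ B, x * y = y * x)
    {b : D} (hb : b ∈ B) (hb1 : b ≠ 1) (a : E) (ha : b • a = a) : a = 0 := by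
  by_contra ha0
  have hfam : IsFixFam B (fixA (E := E) {b}) := by
    refine ⟨?_, {b}, by simpa using hb, rfl⟩
    intro h
    have : a ∈ fixA (E := E) {b} := by
      rintro s rfl; exact ha
    rw [h] at this
    exact ha0 (by simpa using this)
  haveI : Finite (AddSubgroup E) :=
    Finite.of_injective (fun U : AddSubgroup E => (U : Set E)) SetLike.coe_injective
  obtain ⟨U, hUle, hU⟩ := (Set.toFinite (IsFixFam (E := E) B)).exists_le_minimal hfam
  have hUtop : U = ⊤ := by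
    obtain ⟨v, hvU, hv0⟩ := exists_mem_ne_zero_of_ne_bot hU.1.1
    rw [eq_top_iff]
    intro e _
    by_cases he : e = 0
    · rw [he]; exact U.zero_mem
    obtain ⟨d, hd⟩ := htrans v e hv0 he
    have := mem_smul_of_pm hvU hd
    rwa [smul_eq_of_minimal' htrans hB hab hU d] at this
  apply hb1
  apply FaithfulSMul.eq_of_smul_eq_smul (α := E)
  intro e
  have : e ∈ U := by rw [hUtop]; trivial
  have h2 := hUle this
  rw [one_smul]
  exact h2 b rfl

/-- An abelian normal subgroup is cyclic. -/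
theorem isCyclic_of_abelian_normal' [Finite D] [Finite E] [Nontrivial E] [FaithfulSMul D E]
    (htrans : HalfTrans D E)
    {B : Subgroup D} (hB : B.Normal) (hab : ∀ x ∈ B, ∀ y ∈ B, x * y = y * x) : IsCyclic B := by
  let φ : B →* AddMonoid.End E := (DistribMulAction.toAddMonoidEnd D E).comp B.subtype
  have hφ : Cfsg.Agent.Lib.FPF.Basic.IsFPF φ := by
    intro b hb1 w hw
    exact fpf_of_abelian_normal' htrans hB hab b.2 (fun h => hb1 (Subtype.ext h)) w hw
  exact Cfsg.Agent.Lib.FPF.Basic.isCyclic_of_comm hφ fun a b => Subtype.ext (hab _ a.2 _ b.2)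

/-- The covering bound. -/
theorem cover_bound' [Finite D] [Finite E] (htrans : HalfTrans D E) {s : ℕ} (hs : s.Prime)
    {U : Subgroup D} (hU : U.Normal) {y : D} (hy : y ∈ U) (hy1 : y ≠ 1) (hys : y ^ s = 1)
    (hfix : fixA (E := E) {y} ≠ ⊥) :
    (s - 1) * (Nat.card E - 1) ≤ Nat.card U * (Nat.card (fixA (E := E) {y}) - 1) := by
  classical
  letI := Fintype.ofFinite D
  letI := Fintype.ofFinite E
  haveI : Fact s.Prime := ⟨hs⟩
  have hord : orderOf y = s := orderOf_eq_prime hys hy1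
  set M := Nat.card (fixA (E := E) {y}) with hM
  let T : Finset D := Finset.univ.filter (fun u => u ∈ U ∧ Nat.card (fixA (E := E) {u}) ≤ M)
  let X : Finset E := Finset.univ.erase 0
  let r : E → D → Prop := fun v u => u • v = v
  have hcount := Finset.sum_card_bipartiteAbove_eq_sum_card_bipartiteBelow (s := X) (t := T) r
  obtain ⟨w, hwfix, hw0⟩ := exists_mem_ne_zero_of_ne_bot hfix
  have hwy : y • w = w := hwfix y rfl
  have hL : ∀ v ∈ X, s - 1 ≤ (T.bipartiteAbove r v).card := by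
    intro v hv
    have hv0 : v ≠ 0 := Finset.ne_of_mem_erase hv
    obtain ⟨g, hg⟩ := htrans w v hw0 hv0
    have hc : (Finset.Ico 1 s).card = s - 1 := by simp
    rw [← hc]
    refine Finset.card_le_card_of_injOn (fun i => g * y ^ i * g⁻¹) ?_ ?_
    · intro i hi
      have hi' := Finset.mem_Ico.1 hi
      simp only [Finset.coe_bipartiteAbove, Set.mem_ofPred_eq]
      refine ⟨?_, ?_⟩
      · refine Finset.mem_filter.2 ⟨Finset.mem_univ _, hU.conj_mem _ (U.pow_mem hy i) g, ?_⟩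
        rw [card_fixA_conj, fixA_pow_eq hs hys (by omega) hi'.2]
      · change (g * y ^ i * g⁻¹) • v = v
        have hgw : (g * y ^ i * g⁻¹) • (g • w) = g • w := by
          simp [mul_smul, pow_smul_of_fix hwy i]
        rcases hg with hg | hg
        · rwa [hg] at hgw
        · rw [hg, smul_neg, neg_inj] at hgw
          exact hgw
    · intro i hi j hj hij
      have hi' := Finset.mem_Ico.1 hi
      have hj' := Finset.mem_Ico.1 hj
      have h1 : y ^ i = y ^ j := by
        simpa using hij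
      exact pow_injOn_Iio_orderOf (x := y) (x₁ := i) (x₂ := j) (by simp [hord, hi'.2])
        (by simp [hord, hj'.2]) h1
  have hR : ∀ u ∈ T, (X.bipartiteBelow r u).card ≤ M - 1 := by
    intro u hu
    have hu' := (Finset.mem_filter.1 hu).2.2
    have h0 : (0 : E) ∉ X.bipartiteBelow r u := by
      intro h0
      exact (Finset.mem_erase.1 (Finset.mem_filter.1 h0).1).1 rfl
    have h1 : (insert 0 (X.bipartiteBelow r u)).card = (X.bipartiteBelow r u).card + 1 :=
      Finset.card_insert_of_notMem h0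
    have h2 : (insert 0 (X.bipartiteBelow r u)).card ≤ Nat.card (fixA (E := E) {u}) := by
      have h3 : ((insert 0 (X.bipartiteBelow r u) : Finset E) : Set E) ⊆
          (fixA (E := E) {u} : Set E) := by
        intro v hv
        rcases Finset.mem_insert.1 (Finset.mem_coe.1 hv) with rfl | hv'
        · exact (fixA (E := E) {u}).zero_mem
        · rintro _ rfl
          exact (Finset.mem_filter.1 hv').2
      have h4 := Set.ncard_le_ncard h3 (Set.toFinite _)
      rw [Set.ncard_coe_finset] at h4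
      rw [← Nat.card_coe_set_eq] at h4
      exact h4
    omega
  have hT : T.card ≤ Nat.card U := by
    have h3 : (T : Set D) ⊆ (U : Set D) := by
      intro u hu
      exact (Finset.mem_filter.1 (Finset.mem_coe.1 hu)).2.1
    have h4 := Set.ncard_le_ncard h3 (Set.toFinite _)
    rw [Set.ncard_coe_finset, ← Nat.card_coe_set_eq] at h4
    exact h4
  have hX : X.card = Nat.card E - 1 := by
    rw [Finset.card_erase_of_mem (Finset.mem_univ _), Finset.card_univ, Nat.card_eq_fintype_card]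
  calc (s - 1) * (Nat.card E - 1) = X.card • (s - 1) := by rw [hX, smul_eq_mul, mul_comm]
    _ ≤ ∑ v ∈ X, (T.bipartiteAbove r v).card := Finset.card_nsmul_le_sum _ _ _ hL
    _ = ∑ u ∈ T, (X.bipartiteBelow r u).card := hcount
    _ ≤ T.card • (M - 1) := Finset.sum_le_card_nsmul _ _ _ hR
    _ ≤ Nat.card U * (M - 1) := by
        rw [smul_eq_mul]
        exact Nat.mul_le_mul_right _ hT

/-- The configuration of the projection argument, with `s` invertible on `E`. -/
structure Cfg' (s : ℕ) (x y c : D) (E₁ : AddSubgroup E) : Prop where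
  sinj : ∀ e : E, s • e = 0 → e = 0
  sprime : s.Prime
  c1 : c ≠ 1
  cs : c ^ s = 1
  ys : y ^ s = 1
  cx : Commute c x
  cy : Commute c y
  xy : x * y * x⁻¹ = c * y
  xE : ∀ e ∈ E₁, x • e ∈ E₁
  xE' : ∀ e ∈ E₁, x⁻¹ • e ∈ E₁
  yE : ∀ e ∈ E₁, y • e ∈ E₁
  cE : ∀ t ∈ Subgroup.zpowers c, ∀ e ∈ E₁, t • e ∈ E₁
  fpf : ∀ t ∈ Subgroup.zpowers c, t ≠ 1 → ∀ e ∈ E₁, t • e = e → e = 0

namespace Cfg'

variable {s : ℕ} {x y c : D} {E₁ : AddSubgroup E}

theorem conj_pow (h : Cfg' s x y c E₁) (i : ℕ) : x ^ i * y * (x ^ i)⁻¹ = c ^ i * y := by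
  induction i with
  | zero => simp
  | succ i ih =>
    calc x ^ (i + 1) * y * (x ^ (i + 1))⁻¹ = x * (x ^ i * y * (x ^ i)⁻¹) * x⁻¹ := by
          rw [pow_succ']; group
      _ = x * (c ^ i * y) * x⁻¹ := by rw [ih]
      _ = c ^ i * (x * y * x⁻¹) := by
          rw [← mul_assoc x, ((h.cx.pow_left i).eq).symm]; group
      _ = c ^ i * (c * y) := by rw [h.xy]
      _ = c ^ (i + 1) * y := by rw [pow_succ, mul_assoc]

theorem pow_s_of_mem (h : Cfg' s x y c E₁) {t : D} (ht : t ∈ Subgroup.zpowers c) : t ^ s = 1 := by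
  obtain ⟨m, rfl⟩ := Subgroup.mem_zpowers_iff.1 ht
  rw [← zpow_natCast, zpow_comm, zpow_natCast, h.cs, one_zpow]

theorem comm_of_mem (h : Cfg' s x y c E₁) {t : D} (ht : t ∈ Subgroup.zpowers c) : Commute t y := by
  obtain ⟨m, rfl⟩ := Subgroup.mem_zpowers_iff.1 ht
  exact h.cy.zpow_left m

theorem g_pow (h : Cfg' s x y c E₁) (j : ℕ) : (c ^ j * y) ^ s = 1 := by
  rw [(h.cy.pow_left j).mul_pow, h.pow_s_of_mem (Cfg.pow_mem_zpowers j), h.ys, mul_one]

theorem orderOf_c (h : Cfg' s x y c E₁) : orderOf c = s :=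
  haveI : Fact s.Prime := ⟨h.sprime⟩
  orderOf_eq_prime h.cs h.c1

theorem normSum_eq_zero (h : Cfg' s x y c E₁) {t : D} (ht : t ∈ Subgroup.zpowers c) (ht1 : t ≠ 1)
    {e : E} (he : e ∈ E₁) : normSum t s e = 0 :=
  h.fpf t ht ht1 _ (normSum_mem (h.cE t ht) he s) (smul_normSum (h.pow_s_of_mem ht) e)

theorem g_mem (h : Cfg' s x y c E₁) (j : ℕ) {e : E} (he : e ∈ E₁) : (c ^ j * y) • e ∈ E₁ := by
  rw [mul_smul]
  exact h.cE _ (Cfg.pow_mem_zpowers j) _ (h.yE e he)

/-- Evaluate the projection on an eigenvector. -/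
theorem pi_eq (h : Cfg' s x y c E₁) {i j : ℕ} (hi : i < s) (hj : j < s) {e : E} (he : e ∈ E₁)
    (hfix : (c ^ i * y) • e = e) :
    normSum (c ^ j * y) s e = if i = j then s • e else 0 := by
  have ht : c ^ j * (c ^ i)⁻¹ ∈ Subgroup.zpowers c :=
    Subgroup.mul_mem _ (Cfg.pow_mem_zpowers j) (Subgroup.inv_mem _ (Cfg.pow_mem_zpowers i))
  have h1 : (c ^ j * y) • e = (c ^ j * (c ^ i)⁻¹) • e := by
    conv_rhs => rw [← hfix]
    rw [← mul_smul]
    congr 1
    group
  have h2 : Commute (c ^ j * y) (c ^ j * (c ^ i)⁻¹) := by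
    have ht_c : Commute (c ^ j * (c ^ i)⁻¹) (c ^ j) :=
      ((Commute.refl c).pow_pow j j).mul_left ((Commute.refl c).pow_pow i j).inv_left
    exact (ht_c.mul_right (h.comm_of_mem ht)).symm
  rw [normSum_congr h1 h2]
  split_ifs with hij
  · subst hij
    rw [mul_inv_cancel, normSum_one]
  · refine h.normSum_eq_zero ht ?_ he
    intro ht1
    apply hij
    have h3 : c ^ j = c ^ i := by
      rwa [mul_inv_eq_one] at ht1
    have := pow_injOn_Iio_orderOf (x := c) (x₁ := j) (x₂ := i)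
      (by simpa [h.orderOf_c] using hj) (by simpa [h.orderOf_c] using hi) h3
    exact this.symm

/-- The projections sum to `s`. -/
theorem sum_pi (h : Cfg' s x y c E₁) {e : E} (he : e ∈ E₁) :
    ∑ j ∈ Finset.range s, normSum (c ^ j * y) s e = s • e := by
  have h1 : ∀ j k : ℕ, (c ^ j * y) ^ k • e = (c ^ k) ^ j • (y ^ k • e) := by
    intro j k
    rw [(h.cy.pow_left j).mul_pow, mul_smul, ← pow_mul, ← pow_mul, mul_comm]
  unfold normSum
  rw [Finset.sum_comm]
  simp only [h1]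
  have h2 : ∀ k ∈ Finset.range s, k ≠ 0 →
      ∑ j ∈ Finset.range s, (c ^ k) ^ j • (y ^ k • e) = 0 := by
    intro k hk hk0
    have hk' : k < s := Finset.mem_range.1 hk
    refine h.normSum_eq_zero (Cfg.pow_mem_zpowers k) ?_ (pow_smul_mem h.yE he k)
    intro h1
    have := orderOf_dvd_of_pow_eq_one h1
    rw [h.orderOf_c] at this
    exact absurd (Nat.le_of_dvd (Nat.pos_of_ne_zero hk0) this) (by omega)
  rw [Finset.sum_eq_single 0 h2 (fun h0 => absurd (Finset.mem_range.2 h.sprime.pos) h0)]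
  simp only [pow_zero, one_pow, one_smul]
  rw [Finset.sum_const, Finset.card_range]

theorem inv_pow_mem (h : Cfg' s x y c E₁) {e : E} (he : e ∈ E₁) (k : ℕ) : (x ^ k)⁻¹ • e ∈ E₁ := by
  rw [← inv_pow]
  exact pow_smul_mem h.xE' he k

/-- `C_{E₁}(y) ≠ 0`. -/
theorem fix_ne_bot (h : Cfg' s x y c E₁) (hE : E₁ ≠ ⊥) : E₁ ⊓ fixA (E := E) {y} ≠ ⊥ := by
  intro hbot
  obtain ⟨e, heE, he0⟩ := exists_mem_ne_zero_of_ne_bot hE
  apply he0
  apply h.sinj
  rw [← h.sum_pi heE]
  refine Finset.sum_eq_zero fun j _ => ?_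
  set N := normSum (c ^ j * y) s e with hN
  have hNE : N ∈ E₁ := normSum_mem (fun e he => h.g_mem j he) heE s
  have hNfix : (c ^ j * y) • N = N := smul_normSum (h.g_pow j) e
  have hd : (x ^ j)⁻¹ • N ∈ E₁ ⊓ fixA (E := E) {y} := by
    refine ⟨h.inv_pow_mem hNE j, ?_⟩
    intro t ht
    rw [Set.mem_singleton_iff.1 ht]
    calc y • (x ^ j)⁻¹ • N = (x ^ j)⁻¹ • ((x ^ j * y * (x ^ j)⁻¹) • N) := by
          simp [mul_smul]
      _ = (x ^ j)⁻¹ • N := by rw [h.conj_pow, hNfix]
  rw [hbot, AddSubgroup.mem_bot] at hd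
  exact (smul_eq_zero_iff_eq _).1 hd

theorem pow_smul_fix (h : Cfg' s x y c E₁) (i : ℕ) {d : E} (hd : y • d = d) :
    (c ^ i * y) • (x ^ i • d) = x ^ i • d := by
  rw [← h.conj_pow]
  simp [mul_smul, hd]

/-- `|C_{E₁}(y)| ^ s ≤ |E₁|`. -/
theorem card_pow_le [Finite E] (h : Cfg' s x y c E₁) :
    Nat.card ↥(E₁ ⊓ fixA (E := E) {y}) ^ s ≤ Nat.card E₁ := by
  classical
  set C := E₁ ⊓ fixA (E := E) {y} with hC
  have hfixC : ∀ f : C, y • (f : E) = f := fun f => f.2.2 y rfl
  let Φ : (Fin s → C) → E₁ := fun f =>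
    ⟨∑ i : Fin s, x ^ (i : ℕ) • (f i : E),
      E₁.sum_mem fun i _ => pow_smul_mem h.xE (f i).2.1 _⟩
  have hinj : Function.Injective Φ := by
    intro f f' hff
    have hff' : ∑ i : Fin s, x ^ (i : ℕ) • (f i : E) = ∑ i : Fin s, x ^ (i : ℕ) • (f' i : E) :=
      congrArg Subtype.val hff
    funext j
    have key : ∀ f : Fin s → C,
        normSum (c ^ (j : ℕ) * y) s (∑ i : Fin s, x ^ (i : ℕ) • (f i : E)) =
          s • (x ^ (j : ℕ) • (f j : E)) := by
      intro f
      rw [normSum_sum, Finset.sum_eq_single j]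
      · rw [h.pi_eq j.2 j.2 (pow_smul_mem h.xE (f j).2.1 _) (h.pow_smul_fix _ (hfixC _)), if_pos rfl]
      · intro i _ hij
        rw [h.pi_eq i.2 j.2 (pow_smul_mem h.xE (f i).2.1 _) (h.pow_smul_fix _ (hfixC _)),
          if_neg (fun h' => hij (Fin.ext h'))]
      · simp
    have h3 := congrArg (normSum (c ^ (j : ℕ) * y) s) hff'
    rw [key f, key f'] at h3
    have h4 : s • (x ^ (j : ℕ) • (f j : E) - x ^ (j : ℕ) • (f' j : E)) = 0 := by
      rw [smul_sub, h3, sub_self]
    have h5 := sub_eq_zero.1 (h.sinj _ h4)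
    exact Subtype.ext (smul_left_cancel _ h5)
  have := Nat.card_le_card_of_injective Φ hinj
  rwa [Nat.card_fun, Nat.card_fin] at this

end Cfg'

/-- The configuration for a non-commuting pair. -/
theorem cfg' [Finite D] {s : ℕ} {Z₀ U : Subgroup D} (h : ExtraData s Z₀ U)
    (sinj : ∀ e : E, s • e = 0 → e = 0) (hs : s.Prime)
    {x y : D} (hx : x ∈ U) (hy : y ∈ U) (hxy : x * y ≠ y * x) {E₁ : AddSubgroup E}
    (hinv : ∀ u ∈ U, ∀ e ∈ E₁, u • e ∈ E₁)
    (hfpf : ∀ z ∈ Z₀, z ≠ 1 → ∀ e ∈ E₁, z • e = e → e = 0) : Cfg' s x y ⁅x, y⁆ E₁ := by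
  have hc1 : ⁅x, y⁆ ≠ 1 := fun h1 => hxy ((commutatorElement_eq_one_iff_mul_comm).1 h1)
  have hcZ : ⁅x, y⁆ ∈ Z₀ := h.comm x hx y hy
  have hZc : Z₀ = Subgroup.zpowers ⁅x, y⁆ := h.s_prime_zpowers hs hcZ hc1
  exact
    { sinj := sinj
      sprime := hs
      c1 := hc1
      cs := h.exp _ (h.Z_le hcZ)
      ys := h.exp y hy
      cx := h.Z_central _ hcZ x hx
      cy := h.Z_central _ hcZ y hy
      xy := by simp [commutatorElement_def]
      xE := hinv x hx
      xE' := hinv x⁻¹ (U.inv_mem hx)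
      yE := hinv y hy
      cE := fun t ht => hinv t (h.Z_le (hZc ▸ ht))
      fpf := fun t ht ht1 => hfpf t (hZc ▸ ht) ht1 }

/-- **The bound.** -/
theorem card_mul_le' [Finite D] [Finite E] {s : ℕ} (sinj : ∀ e : E, s • e = 0 → e = 0)
    (hs : s.Prime) (hodd : Odd s) (n : ℕ) : ∀ (Z₀ U : Subgroup D) (E₁ : AddSubgroup E),
    Nat.card U ≤ n →
    ExtraData s Z₀ U → E₁ ≠ ⊥ → (∀ u ∈ U, ∀ e ∈ E₁, u • e ∈ E₁) →
    (∀ z ∈ Z₀, z ≠ 1 → ∀ e ∈ E₁, z • e = e → e = 0) →
    Nat.card U * s ^ 2 ≤ (s - 1) * Nat.card E₁ ^ (s - 1) := by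
  have hs3 : 3 ≤ s := by
    have := hs.two_le
    rcases hodd with ⟨m, rfl⟩
    omega
  induction n with
  | zero =>
    intro Z₀ U E₁ hn
    have : 0 < Nat.card U := Nat.card_pos
    omega
  | succ n ih =>
    intro Z₀ U E₁ hn h hE hinv hfpf
    by_cases hcomm : ∀ u ∈ U, ∀ v ∈ U, u * v = v * u
    · have hUZ : U ≤ Z₀ := fun u hu => h.center u hu (hcomm u hu)
      have h1 : Nat.card U ≤ s := by
        rw [← h.Z_card]; exact Subgroup.card_le_of_le hUZ
      have h2 := h.succ_le_card hs hE hinv hfpf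
      calc Nat.card U * s ^ 2 ≤ s * s ^ 2 := Nat.mul_le_mul_right _ h1
        _ ≤ _ := numeric_base hs3 h2
    · push Not at hcomm
      obtain ⟨x, hx, y, hy, hxy⟩ := hcomm
      have hWdata := h.W_data hs hx hy hxy
      have hcfg := cfg' h sinj hs hx hy hxy hinv hfpf
      set E₂ := E₁ ⊓ Cfsg.Agent.Lib.TransLin.Basic.fixA (E := E) {y} with hE₂
      have hE₂0 : E₂ ≠ ⊥ := hcfg.fix_ne_bot hE
      have hE₂card : Nat.card E₂ ^ s ≤ Nat.card E₁ := hcfg.card_pow_le
      have hWlt : Nat.card (ExtraData.W U x y) < Nat.card U := by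
        have hle : ExtraData.W U x y ≤ U := fun u hu => hu.1.1
        refine lt_of_le_of_ne (Subgroup.card_le_of_le hle) fun heq => ?_
        have : ExtraData.W U x y = U := Subgroup.eq_of_le_of_card_ge hle heq.ge
        have hxW : x ∈ ExtraData.W U x y := by rw [this]; exact hx
        exact hxy (Subgroup.mem_centralizer_singleton_iff.1 hxW.2)
      have hinvW : ∀ u ∈ ExtraData.W U x y, ∀ e ∈ E₂, u • e ∈ E₂ := ExtraData.W_inv hinv
      have hfpfW : ∀ z ∈ Z₀, z ≠ 1 → ∀ e ∈ E₂, z • e = e → e = 0 :=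
        fun z hz hz1 e he hze => hfpf z hz hz1 e he.1 hze
      have IH := ih Z₀ _ E₂ (by omega) hWdata hE₂0 hinvW hfpfW
      have hM := hWdata.succ_le_card hs hE₂0 hinvW hfpfW
      have hnum := numeric_step hs3 (by omega : s ≤ Nat.card E₂) hE₂card
      have hU := h.card_le_W hx hy
      calc Nat.card U * s ^ 2 ≤ (Nat.card (ExtraData.W U x y) * s * s) * s ^ 2 :=
            Nat.mul_le_mul_right _ hU
        _ = s ^ 2 * (Nat.card (ExtraData.W U x y) * s ^ 2) := by ring
        _ ≤ s ^ 2 * ((s - 1) * Nat.card E₂ ^ (s - 1)) := Nat.mul_le_mul_left _ IH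
        _ = (s - 1) * (s ^ 2 * Nat.card E₂ ^ (s - 1)) := by ring
        _ ≤ (s - 1) * Nat.card E₁ ^ (s - 1) := Nat.mul_le_mul_left _ hnum

/-- **A normal subgroup of extraspecial type is abelian.** -/
theorem false_of_noncomm' [Finite D] [Finite E] [Nontrivial E] {s : ℕ}
    (sinj : ∀ e : E, s • e = 0 → e = 0)
    (hs : s.Prime) (hodd : Odd s) (htrans : HalfTrans D E)
    {Z₀ U : Subgroup D} (h : ExtraData s Z₀ U) (hU : U.Normal)
    (hfpf : ∀ z ∈ Z₀, z ≠ 1 → ∀ e : E, z • e = e → e = 0)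
    {x y : D} (hx : x ∈ U) (hy : y ∈ U) (hxy : x * y ≠ y * x) : False := by
  have hs3 : 3 ≤ s := by
    have := hs.two_le
    rcases hodd with ⟨m, rfl⟩
    omega
  have hinv : ∀ u ∈ U, ∀ e ∈ (⊤ : AddSubgroup E), u • e ∈ (⊤ : AddSubgroup E) :=
    fun _ _ _ _ => trivial
  have hfpf' : ∀ z ∈ Z₀, z ≠ 1 → ∀ e ∈ (⊤ : AddSubgroup E), z • e = e → e = 0 :=
    fun z hz hz1 e _ => hfpf z hz hz1 e
  have hcfg := cfg' h sinj hs hx hy hxy hinv hfpf'
  have hE : (⊤ : AddSubgroup E) ≠ ⊥ := top_ne_bot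
  have hne := hcfg.fix_ne_bot hE
  have hcard := hcfg.card_pow_le
  have hW := h.W_data hs hx hy hxy
  have hinvW := ExtraData.W_inv (x := x) (y := y) hinv
  have hfpfW : ∀ z ∈ Z₀, z ≠ 1 → ∀ e ∈ (⊤ : AddSubgroup E) ⊓ fixA (E := E) {y},
      z • e = e → e = 0 := fun z hz hz1 e _ => hfpf z hz hz1 e
  have hbound := card_mul_le' sinj hs hodd _ Z₀ _ _ le_rfl hW hne hinvW hfpfW
  have hM := hW.succ_le_card hs hne hinvW hfpfW
  have hU2 := h.card_le_W hx hy
  rw [top_inf_eq] at hne hcard hbound hM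
  have hy1 : y ≠ 1 := by
    rintro rfl
    simp at hxy
  have hcov := cover_bound' htrans hs hU hy hy1 (h.exp y hy) hne
  rw [AddSubgroup.card_top] at hcard
  exact numeric_final hs3 (by omega) hcard hcov hU2 hbound

/-- **Normal `s`-subgroups of `D` are abelian, for `s` invertible on `E`.** -/
theorem comm_of_normal_pGroup' [Finite D] [Finite E] [Nontrivial E] [FaithfulSMul D E]
    (hodd : Odd (Nat.card D)) (htrans : HalfTrans D E)
    {s : ℕ} (hs : s.Prime) (sinj : ∀ e : E, s • e = 0 → e = 0)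
    {P : Subgroup D} (hP : P.Normal) (hpP : IsPGroup s P) :
    ∀ x ∈ P, ∀ y ∈ P, x * y = y * x := by
  haveI : Fact s.Prime := ⟨hs⟩
  by_contra hcontra
  push Not at hcontra
  obtain ⟨x₀, hx₀, y₀, hy₀, hxy₀⟩ := hcontra
  have hPne : Nat.card P ≠ 1 := by
    intro h1
    haveI : Subsingleton P := (Nat.card_eq_one_iff_unique.1 h1).1
    have : (⟨x₀, hx₀⟩ : P) = ⟨y₀, hy₀⟩ := Subsingleton.elim _ _
    have h2 : x₀ = y₀ := congrArg Subtype.val this
    exact hxy₀ (by rw [h2])
  have hsodd : Odd s := by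
    obtain ⟨n, hn⟩ := IsPGroup.iff_card.1 hpP
    have hdvd : Nat.card P ∣ Nat.card D := Subgroup.card_subgroup_dvd_card P
    have hodd2 : Odd (Nat.card P) := Odd.of_dvd_nat hodd hdvd
    rw [hn] at hodd2 hPne
    have hn0 : n ≠ 0 := by rintro rfl; simp at hPne
    exact (Nat.odd_pow_iff hn0).1 hodd2
  have hs2 : s ≠ 2 := by
    rintro rfl
    exact absurd hsodd (by decide)
  have hnc : ¬ IsCyclic P := by
    intro hc
    haveI := hc
    have := IsCyclic.isMulCommutative (α := P)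
    have h2 : (⟨x₀, hx₀⟩ : P) * ⟨y₀, hy₀⟩ = ⟨y₀, hy₀⟩ * ⟨x₀, hx₀⟩ := this.is_comm.comm _ _
    exact hxy₀ (congrArg Subtype.val h2)
  obtain ⟨A, hAnc, hAexp, hAc⟩ := exists_noncyclic_in_second_center hs2 hpP hnc
  set U := omega P hs hsodd with hU
  have hUn : U.Normal := omega_normal hP hs hsodd
  have hAU : ∀ a ∈ A, (a : D) ∈ U := by
    intro a ha
    refine ⟨a.2, ?_, ?_⟩
    · have := hAexp a ha
      exact congrArg Subtype.val this
    · intro g hg
      have h1 := hAc a ha ⟨g, hg⟩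
      refine ⟨(⁅a, (⟨g, hg⟩ : P)⁆ : P).2, ?_⟩
      refine Subgroup.mem_centralizer_iff.2 ?_
      intro h hh
      have h2 := (Subgroup.mem_center_iff.1 h1) ⟨h, hh⟩
      exact congrArg Subtype.val h2
  have hUnc : ¬ ∀ x ∈ U, ∀ y ∈ U, x * y = y * x := by
    intro hab
    haveI := isCyclic_of_abelian_normal' htrans hUn hab
    let f : A →* U :=
      { toFun := fun a => ⟨((a : P) : D), hAU a a.2⟩
        map_one' := rfl
        map_mul' := fun _ _ => rfl }
    have hf : Function.Injective f := by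
      intro a b hab
      exact Subtype.ext (Subtype.ext (congrArg (fun w : U => (w : D)) hab))
    exact hAnc (isCyclic_of_injective f hf)
  push Not at hUnc
  obtain ⟨x, hx, y, hy, hxy⟩ := hUnc
  set Z₀ : Subgroup D := U ⊓ Subgroup.centralizer (U : Set D) with hZ₀
  have hZn : Z₀.Normal := by
    haveI := hUn
    exact Subgroup.normal_inf_normal _ _
  have hZab : ∀ a ∈ Z₀, ∀ b ∈ Z₀, a * b = b * a := by
    intro a ha b hb
    exact ((Subgroup.mem_centralizer_iff.1 ha.2) b hb.1).symm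
  have hZfpf : ∀ z ∈ Z₀, z ≠ 1 → ∀ e : E, z • e = e → e = 0 := fun z hz hz1 e he =>
    fpf_of_abelian_normal' htrans hZn hZab hz hz1 e he
  haveI hZcyc : IsCyclic Z₀ := isCyclic_of_abelian_normal' htrans hZn hZab
  have hcomm : ∀ u ∈ U, ∀ v ∈ U, ⁅u, v⁆ ∈ Z₀ := by
    intro u hu v hv
    refine ⟨?_, ?_⟩
    · have : ⁅u, v⁆ = u * v * u⁻¹ * v⁻¹ := rfl
      rw [this]
      exact U.mul_mem (U.mul_mem (U.mul_mem hu hv) (U.inv_mem hu)) (U.inv_mem hv)
    · refine Subgroup.mem_centralizer_iff.2 ?_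
      intro h hh
      exact (ZP_comm (hu.2.2 v hv.1) hh.1).symm
  have hZcard : Nat.card Z₀ = s := by
    have h1 : Nat.card Z₀ ∣ s := by
      rw [← IsCyclic.exponent_eq_card]
      refine Monoid.exponent_dvd_of_forall_pow_eq_one fun a => Subtype.ext ?_
      exact a.2.1.2.1
    rcases (Nat.dvd_prime hs).1 h1 with h2 | h2
    · exfalso
      haveI : Subsingleton Z₀ := (Nat.card_eq_one_iff_unique.1 h2).1
      have h3 : (⟨⁅x, y⁆, hcomm x hx y hy⟩ : Z₀) = 1 := Subsingleton.elim _ _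
      have h4 : ⁅x, y⁆ = 1 := congrArg Subtype.val h3
      exact hxy ((commutatorElement_eq_one_iff_mul_comm).1 h4)
    · exact h2
  have hdata : ExtraData s Z₀ U :=
    { Z_le := inf_le_left
      Z_card := hZcard
      Z_central := fun z hz u hu => ((Subgroup.mem_centralizer_iff.1 hz.2) u hu).symm
      exp := fun u hu => hu.2.1
      comm := hcomm
      center := fun u hu hc => ⟨hu, Subgroup.mem_centralizer_iff.2 fun h hh => (hc h hh).symm⟩ }
  exact false_of_noncomm' sinj hs hsodd htrans hdata hUn hZfpf hx hy hxy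

/-- A normal `p`-subgroup is trivial, when `E` is a non-zero `p`-torsion group. -/
theorem normal_pGroup_eq_bot [Finite D] [Finite E] [Nontrivial E] [FaithfulSMul D E]
    (htrans : HalfTrans D E) {p : ℕ} [hp : Fact p.Prime] (hE : ∀ e : E, p • e = 0)
    {P : Subgroup D} (hP : P.Normal) (hpP : IsPGroup p P) : P = ⊥ := by
  classical
  by_contra hne
  haveI hnt : Nontrivial P := (Subgroup.nontrivial_iff_ne_bot P).2 hne
  haveI hc := hpP.center_nontrivial
  obtain ⟨⟨z, hzc⟩, hz⟩ := exists_ne (1 : Subgroup.center P)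
  have hz1 : (z : D) ≠ 1 := by
    intro h
    apply hz
    apply Subtype.ext
    exact Subtype.ext h
  -- the centre of `P`
  have hzZ : (z : D) ∈ ZP P := by
    refine ⟨z.2, Subgroup.mem_centralizer_iff.2 fun h hh => ?_⟩
    have := (Subgroup.mem_center_iff.1 hzc) ⟨h, hh⟩
    exact congrArg Subtype.val this
  have hZn : (ZP P).Normal := ⟨fun z hz d => ZP_conj hP hz d⟩
  have hZab : ∀ a ∈ ZP P, ∀ b ∈ ZP P, a * b = b * a := fun a ha b hb => ZP_comm ha hb.1
  let φ : ZP P →* AddMonoid.End E := (DistribMulAction.toAddMonoidEnd D E).comp (ZP P).subtype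
  have hφ : Cfsg.Agent.Lib.FPF.Basic.IsFPF φ := by
    intro b hb1 w hw
    exact fpf_of_abelian_normal' htrans hZn hZab b.2 (fun h => hb1 (Subtype.ext h)) w hw
  obtain ⟨n, hn⟩ := hpP z
  have hn' : (⟨(z : D), hzZ⟩ : ZP P) ^ p ^ n = 1 := by
    apply Subtype.ext
    have := congrArg Subtype.val hn
    simpa using this
  have hne1 : (⟨(z : D), hzZ⟩ : ZP P) ≠ 1 := fun h => hz1 (congrArg Subtype.val h)
  have hnd := Cfsg.Agent.Lib.FPF.Basic.not_dvd_card hφ hne1 hn'
  apply hnd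
  obtain ⟨e, he⟩ := exists_ne (0 : E)
  have hord : addOrderOf e = p := addOrderOf_eq_prime (hE e) he
  rw [← hord]
  exact addOrderOf_dvd_natCard e

/-- `s` is invertible on a `p`-torsion group, for primes `s ≠ p`. -/
theorem sinj_of_ne {p s : ℕ} (hp : p.Prime) (hs : s.Prime) (hne : s ≠ p) (hE : ∀ e : E, p • e = 0)
    (e : E) (h : s • e = 0) : e = 0 := by
  have h1 : addOrderOf e ∣ p := addOrderOf_dvd_of_nsmul_eq_zero (hE e)
  have h2 : addOrderOf e ∣ s := addOrderOf_dvd_of_nsmul_eq_zero h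
  have h3 : Nat.Coprime s p := (Nat.coprime_primes hs hp).2 hne
  have h4 : addOrderOf e = 1 := Nat.eq_one_of_dvd_coprimes h3 h2 h1
  exact AddMonoid.addOrderOf_eq_one_iff.1 h4

/-- Normal `s`-subgroups are abelian, for all primes `s`. -/
theorem comm_of_normal_pGroup'' [Finite D] [Finite E] [Nontrivial E] [FaithfulSMul D E]
    (hodd : Odd (Nat.card D)) (htrans : HalfTrans D E) {p : ℕ} [hp : Fact p.Prime]
    (hE : ∀ e : E, p • e = 0)
    {s : ℕ} (hs : s.Prime) {P : Subgroup D} (hP : P.Normal) (hpP : IsPGroup s P) :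
    ∀ x ∈ P, ∀ y ∈ P, x * y = y * x := by
  by_cases hsp : s = p
  · subst hsp
    have := normal_pGroup_eq_bot htrans hE hP hpP
    subst this
    intro x hx y hy
    rw [Subgroup.mem_bot] at hx hy
    rw [hx, hy]
  · exact comm_of_normal_pGroup' hodd htrans hs (sinj_of_ne hp.out hs hsp hE) hP hpP

end Cfsg.Agent.Lib.HalfTrans.Fit
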