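import Cfsg.Agent.Lib.HalfTrans.Fit
import Cfsg.Agent.Lib.HalfTrans.Field
import Cfsg.Agent.Lib.Solvable.Fitting

/-!
# Half-transitive linear groups of odd order are semilinear

`D` solvable of odd order acting faithfully on the finite `p`-torsion group `E ≠ 0` (`p` odd), with
any two non-zero vectors conjugate up to sign. Then `|E| = p ^ f ≡ 3 (mod 4)` and `E` can be
identified with the field of `p ^ f` elements so that `D` acts by semilinear maps.
-/

set_option autoImplicit false
set_option linter.style.haveILetI false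
set_option linter.unusedSectionVars false

namespace Cfsg.Agent.Lib.HalfTrans.Linear

open Cfsg Cfsg.Agent.Lib.HalfTrans.Fit Cfsg.Agent.Lib.HalfTrans.Field
open Cfsg.Agent.Lib.Core.Basic

variable {D E : Type*} [Group D] [AddCommGroup E] [DistribMulAction D E]

/-- `F(D)` is abelian. -/
theorem fitting_comm' [Finite D] [Finite E] [Nontrivial E] [FaithfulSMul D E]
    (hodd : Odd (Nat.card D)) (htrans : HalfTrans D E) {p : ℕ} [hp : Fact p.Prime]
    (hE : ∀ e : E, p • e = 0) :
    ∀ x ∈ fittingSubgroup D, ∀ y ∈ fittingSubgroup D, x * y = y * x := by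
  have h1 : ∀ s q : Nat.Primes, pCore (s : ℕ) D ≤ Subgroup.centralizer (pCore (q : ℕ) D : Set D) := by
    intro s q
    haveI : Fact (s : ℕ).Prime := ⟨s.2⟩
    haveI : Fact (q : ℕ).Prime := ⟨q.2⟩
    intro x hx
    refine Subgroup.mem_centralizer_iff.2 fun y hy => ?_
    by_cases hpq : s = q
    · subst hpq
      exact comm_of_normal_pGroup'' hodd htrans hE s.2 (pCore_normal _ D) pCore_isPGroup y hy x hx
    · have hdisj : Disjoint (pCore (q : ℕ) D) (pCore (s : ℕ) D) := by
        refine IsPGroup.disjoint_of_ne (q : ℕ) (s : ℕ) ?_ _ _ pCore_isPGroup pCore_isPGroup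
        intro h
        exact hpq (Subtype.ext h.symm)
      exact Subgroup.commute_of_normal_of_disjoint _ _ (pCore_normal _ D) (pCore_normal _ D)
        hdisj y x hy hx
  have h2 : ∀ q : Nat.Primes, fittingSubgroup D ≤ Subgroup.centralizer (pCore (q : ℕ) D : Set D) := by
    intro q
    rw [fittingSubgroup_eq_iSup_pCore]
    exact iSup_le fun s => h1 s q
  have h3 : fittingSubgroup D ≤ Subgroup.centralizer (fittingSubgroup D : Set D) := by
    conv_lhs => rw [fittingSubgroup_eq_iSup_pCore]
    refine iSup_le fun q => ?_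
    rw [Subgroup.le_centralizer_iff]
    exact h2 q
  intro x hx y hy
  exact ((Subgroup.mem_centralizer_iff.1 (h3 hx)) y hy).symm

/-- The count of orbits: `|E| - 1 = 2 * |orbit|`, `|orbit|` dividing `|D|`. -/
theorem card_sub_one_eq [Finite D] [Finite E] (hodd : Odd (Nat.card D)) (htrans : HalfTrans D E)
    {p : ℕ} (hp2 : p ≠ 2) (hpp : p.Prime) (hE : ∀ e : E, p • e = 0) {v : E} (hv : v ≠ 0) :
    Nat.card E - 1 = 2 * Nat.card (MulAction.orbit D v) := by
  classical
  haveI : Fintype E := Fintype.ofFinite E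
  -- `2` is invertible
  have htwo : ∀ w : E, w = -w → w = 0 := by
    intro w hw
    have h1 : 2 • w = 0 := by
      rw [two_nsmul]
      nth_rewrite 2 [hw]
      exact add_neg_cancel w
    exact sinj_of_ne hpp Nat.prime_two (Ne.symm hp2) hE w h1
  -- disjointness
  have hdisj : ∀ d d' : D, d • v ≠ -(d' • v) := by
    intro d d' h
    set c := d'⁻¹ * d with hc
    have h1 : c • v = -v := by
      rw [hc, mul_smul, h, smul_neg, inv_smul_smul]
    have h2 : ∀ k : ℕ, c ^ k • v = (-1 : ℤ) ^ k • v := by
      intro k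
      induction k with
      | zero => simp
      | succ k ih =>
        rw [pow_succ, mul_smul, h1, smul_neg, ih, pow_succ]
        simp
    have h3 := h2 (Nat.card D)
    rw [pow_card_eq_one', one_smul, hodd.neg_one_pow] at h3
    have h4 : v = -v := by simpa using h3
    exact hv (htwo v h4)
  let O : Finset E := Finset.univ.filter fun w => ∃ d : D, d • v = w
  let O' : Finset E := O.image (fun w => -w)
  have hO'card : O'.card = O.card := Finset.card_image_of_injective _ neg_injective
  have hdisj' : Disjoint O O' := by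
    rw [Finset.disjoint_left]
    intro w hw hw'
    obtain ⟨-, d, rfl⟩ := (Finset.mem_filter.1 hw)
    obtain ⟨u, hu, hu'⟩ := Finset.mem_image.1 hw'
    obtain ⟨-, d', rfl⟩ := (Finset.mem_filter.1 hu)
    exact hdisj _ _ hu'.symm
  have hunion : O ∪ O' = Finset.univ.erase 0 := by
    ext w
    simp only [Finset.mem_union, Finset.mem_erase, Finset.mem_univ, and_true]
    constructor
    · rintro (h | h)
      · obtain ⟨-, d, rfl⟩ := Finset.mem_filter.1 h
        exact fun h0 => hv ((smul_eq_zero_iff_eq d).1 h0)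
      · obtain ⟨u, hu, rfl⟩ := Finset.mem_image.1 h
        obtain ⟨-, d, rfl⟩ := Finset.mem_filter.1 hu
        exact fun h0 => hv ((smul_eq_zero_iff_eq d).1 (neg_eq_zero.1 h0))
    · intro hw
      obtain ⟨d, hd⟩ := htrans v w hv hw
      rcases hd with hd | hd
      · left
        exact Finset.mem_filter.2 ⟨Finset.mem_univ _, d, hd⟩
      · right
        refine Finset.mem_image.2 ⟨-w, Finset.mem_filter.2 ⟨Finset.mem_univ _, d, hd⟩, neg_neg w⟩
  have hcard : O.card = Nat.card (MulAction.orbit D v) := by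
    have h1 : (O : Set E) = MulAction.orbit D v := by
      ext w
      simp only [O, Finset.coe_filter, Finset.mem_univ, true_and, Set.mem_ofPred_eq,
        MulAction.mem_orbit_iff]
    rw [Nat.card_coe_set_eq, ← h1, Set.ncard_coe_finset]
  have h1 := Finset.card_union_of_disjoint hdisj'
  rw [hunion, Finset.card_erase_of_mem (Finset.mem_univ _), Finset.card_univ, hO'card, hcard,
    ← Nat.card_eq_fintype_card] at h1
  rw [h1]
  ring

/-- `p ^ f ≡ 3 (mod 4)` forces `f` odd. -/
theorem odd_of_mod_four {p f : ℕ} (h : p ^ f % 4 = 3) : Odd f := by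
  by_contra hf
  rw [Nat.not_odd_iff_even] at hf
  obtain ⟨k, rfl⟩ := hf
  rw [← two_mul, pow_mul'] at h
  have h1 : (p ^ k) ^ 2 % 4 = 0 ∨ (p ^ k) ^ 2 % 4 = 1 := by
    have h2 : (p ^ k) % 4 = 0 ∨ (p ^ k) % 4 = 1 ∨ (p ^ k) % 4 = 2 ∨ (p ^ k) % 4 = 3 := by omega
    rcases h2 with h2 | h2 | h2 | h2 <;> simp [pow_two, Nat.mul_mod, h2]
  omega

/-- The cardinality of a finite `ZMod p`-module. -/
theorem natCard_zmod_module {p : ℕ} [hp : Fact p.Prime] [Finite E] [Module (ZMod p) E] :
    Nat.card E = p ^ Module.finrank (ZMod p) E := by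
  haveI : Module.Finite (ZMod p) E := Module.Finite.of_finite
  have h1 := Module.natCard_eq_pow_finrank (K := ZMod p) (V := E)
  rwa [Nat.card_zmod] at h1

/-- **The theorem for half-transitive linear groups of odd order.** -/
theorem main_linear [Finite D] [Finite E] [Nontrivial E] [FaithfulSMul D E]
    (hodd : Odd (Nat.card D)) (htrans : HalfTrans D E) {p : ℕ} [hp : Fact p.Prime] (hp2 : p ≠ 2)
    (hE : ∀ e : E, p • e = 0) (hsol : Group.IsSolvable D) :
    ∃ f : ℕ, Nat.card E = p ^ f ∧ p ^ f % 4 = 3 ∧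
      ∃ e : E ≃+ GaloisField p f, ∀ g : D, ∃ a : (GaloisField p f)ˣ,
        ∃ σ : GaloisField p f ≃+* GaloisField p f, ∀ v : E,
          e (g • v) = (a : GaloisField p f) * σ (e v) := by
  classical
  have hpp : p.Prime := hp.out
  have hp3 : 3 ≤ p := by
    have := hpp.two_le
    omega
  letI : Module (ZMod p) E := AddCommGroup.zmodModule hE
  set f := Module.finrank (ZMod p) E with hf
  have hcard : Nat.card E = p ^ f := natCard_zmod_module
  obtain ⟨v, hv⟩ := exists_ne (0 : E)
  have hcount := card_sub_one_eq hodd htrans hp2 hpp hE hv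
  have horbodd : Odd (Nat.card (MulAction.orbit D v)) := by
    have h1 : Nat.card (MulAction.orbit D v) ∣ Nat.card D := by
      rw [Nat.card_coe_set_eq, ← MulAction.index_stabilizer]
      exact Subgroup.index_dvd_card _
    exact Odd.of_dvd_nat hodd h1
  have hmod : p ^ f % 4 = 3 := by
    have h1 : 0 < p ^ f := Nat.pos_of_ne_zero (by rw [← hcard]; exact Nat.card_pos.ne')
    rw [hcard] at hcount
    obtain ⟨k, hk⟩ := horbodd
    omega
  have hfodd : Odd f := odd_of_mod_four hmod
  have hF := fitting_comm' hodd htrans hE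
  haveI hcyc : IsCyclic (fittingSubgroup D) :=
    isCyclic_of_abelian_normal' htrans fittingSubgroup_normal' hF
  obtain ⟨⟨x, hx⟩, hgen⟩ := hcyc.exists_generator
  have hgen' : ∀ y ∈ fittingSubgroup D, ∃ k : ℕ, y = x ^ k := by
    intro y hy
    obtain ⟨n, hn⟩ := Subgroup.mem_zpowers_iff.1 (hgen ⟨y, hy⟩)
    have h1 : x ^ n = y := congrArg Subtype.val hn
    have h2 : y ∈ Subgroup.zpowers x := ⟨n, h1⟩
    obtain ⟨k, hk⟩ := mem_powers_iff_mem_zpowers.2 h2
    exact ⟨k, hk.symm⟩
  refine ⟨f, hcard, hmod, ?_⟩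
  refine exists_field_structure (x := x) hfodd hp3 hcard ?_ ?_ ?_ ?_
  · intro g
    obtain ⟨k, hk⟩ := hgen' _ (fittingSubgroup_normal'.conj_mem x hx g)
    exact ⟨k, hk⟩
  · intro g hg
    apply hgen'
    apply Cfsg.Agent.Lib.Solvable.Fitting.centralizer_fittingSubgroup_le
    refine Subgroup.mem_centralizer_iff.2 fun y hy => ?_
    obtain ⟨k, rfl⟩ := hgen' y hy
    exact ((Commute.pow_right (show Commute g x from hg) k)).symm.eq
  · intro k w hw hwk
    by_contra hne
    exact hw (fpf_of_abelian_normal' htrans fittingSubgroup_normal' hF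
      ((fittingSubgroup D).pow_mem hx k) hne w hwk)
  · rw [← hcard, hcount]
    have h1 : Nat.card (MulAction.orbit D v) ≤ Nat.card D := by
      rw [Nat.card_coe_set_eq, ← MulAction.index_stabilizer]
      exact Nat.le_of_dvd Nat.card_pos (Subgroup.index_dvd_card _)
    omega

end Cfsg.Agent.Lib.HalfTrans.Linear
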