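import Cfsg.Agent.Lib.HalfTrans.Perm
import Cfsg.Agent.S0735
import Cfsg.Prelude.Def_Perm

/-!
# Kantor's theorem on 2-homogeneous groups, given the solvability of groups of odd order
-/

set_option autoImplicit false
set_option linter.style.haveILetI false
set_option linter.unusedSectionVars false

namespace Cfsg.Agent.Lib.HalfTrans.Main

/-- Kantor's theorem, with the solvability of `G` as a hypothesis. -/
theorem main_of_solvable {α : Type*} [Fintype α] [DecidableEq α] (G : Subgroup (Equiv.Perm α))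
    (hne : G ≠ ⊥) (h2 : MulAction.IsPretransitive G (Set.powersetCard α 2))
    (hn2 : ¬ MulAction.IsMultiplyPretransitive G α 2)
    (hsol : Odd (Nat.card G) → Group.IsSolvable G) :
    Odd (Nat.card G) ∧ ∃ (p f : ℕ) (_ : Fact p.Prime), p ≠ 2 ∧ Fintype.card α = p ^ f ∧
      p ^ f % 4 = 3 ∧ ∃ e : α ≃ GaloisField p f,
        (∀ g : G, e.symm.trans (((g : Equiv.Perm α)).trans e) ∈ Cfsg.semiaffineGroup (GaloisField p f)) ∧
        ∀ b : GaloisField p f, ∃ g : G, ∀ x : α, e ((g : Equiv.Perm α) x) = e x + b := by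
  classical
  have e1 : ∀ (g : G) (x : α), g • x = (g : Equiv.Perm α) x := fun _ _ => rfl
  -- some element moves a point
  obtain ⟨⟨σ, hσG⟩, hσ1⟩ := (Subgroup.ne_bot_iff_exists_ne_one).1 hne
  have hσ1' : σ ≠ 1 := fun h => hσ1 (Subtype.ext h)
  obtain ⟨u, hu⟩ : ∃ u, σ u ≠ u := by
    by_contra hcon
    push Not at hcon
    exact hσ1' (Equiv.ext hcon)
  have hcard3 : 3 ≤ Fintype.card α := by
    by_contra hlt
    apply hn2
    have hle : Fintype.card α ≤ 2 := by omega
    rw [MulAction.is_two_pretransitive_iff]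
    intro a b c d hab hcd
    -- `α = {u, σ u}`
    have hall : ∀ x : α, x = u ∨ x = σ u := by
      intro x
      by_contra hx
      push Not at hx
      have h3 : ({u, σ u, x} : Finset α).card = 3 := by
        rw [Finset.card_eq_three]
        exact ⟨u, σ u, x, hu.symm, hx.1.symm, hx.2.symm, rfl⟩
      have := Finset.card_le_univ ({u, σ u, x} : Finset α)
      omega
    have hσσ : σ (σ u) = u := by
      rcases hall (σ (σ u)) with h | h
      · exact h
      · exact absurd (σ.injective h) hu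
    have hcases : (a = u ∧ b = σ u) ∨ (a = σ u ∧ b = u) := by
      rcases hall a with rfl | rfl <;> rcases hall b with rfl | rfl
      · exact absurd rfl hab
      · exact Or.inl ⟨rfl, rfl⟩
      · exact Or.inr ⟨rfl, rfl⟩
      · exact absurd rfl hab
    have hcases' : (c = u ∧ d = σ u) ∨ (c = σ u ∧ d = u) := by
      rcases hall c with rfl | rfl <;> rcases hall d with rfl | rfl
      · exact absurd rfl hcd
      · exact Or.inl ⟨rfl, rfl⟩
      · exact Or.inr ⟨rfl, rfl⟩
      · exact absurd rfl hcd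
    rcases hcases with ⟨rfl, rfl⟩ | ⟨rfl, rfl⟩ <;> rcases hcases' with ⟨rfl, rfl⟩ | ⟨rfl, rfl⟩
    · exact ⟨1, by simp, by simp⟩
    · exact ⟨⟨σ, hσG⟩, rfl, hσσ⟩
    · exact ⟨⟨σ, hσG⟩, hσσ, rfl⟩
    · exact ⟨1, by simp, by simp⟩
  obtain ⟨heven, -⟩ := Cfsg.Agent.S0735.result G h2 hcard3
  have hodd : Odd (Nat.card G) := by
    rw [← Nat.not_even_iff_odd]
    exact fun h => hn2 (heven h)
  refine ⟨hodd, ?_⟩
  haveI hnt : Nontrivial G := (Subgroup.nontrivial_iff_ne_bot G).2 hne
  have hfaith : FaithfulSMul G α := ⟨fun {g g'} h => Subtype.ext (Equiv.ext h)⟩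
  have hpair : ∀ {a b c d : α}, a ≠ b → c ≠ d →
      ∃ g : G, (g • a = c ∧ g • b = d) ∨ (g • a = d ∧ g • b = c) := by
    intro a b c d hab hcd
    exact Cfsg.Agent.S0735.exists_pair G h2 hab hcd
  obtain ⟨p, f, hp, hp2, hcard, hmod, e, he, htr⟩ :=
    Cfsg.Agent.Lib.HalfTrans.Perm.core u hodd (hsol hodd) hpair
  refine ⟨p, f, hp, hp2, ?_, hmod, e, ?_, htr⟩
  · rw [← hcard, Nat.card_eq_fintype_card]
  · intro g
    obtain ⟨a, b, τ, h⟩ := he g
    refine ⟨a, b, τ, fun x => ?_⟩
    have h3 := h (e.symm x)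
    rw [Equiv.apply_symm_apply] at h3
    exact h3

end Cfsg.Agent.Lib.HalfTrans.Main
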