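import Cfsg.Agent.Lib.HalfTrans.Linear

/-!
# Solvable 2-homogeneous permutation groups of odd order

`G` acts faithfully on `α`; any two 2-subsets are conjugate; `G ≠ 1` is solvable of odd order. Then
`|α| = p ^ f ≡ 3 (mod 4)` and `α` can be identified with the field of `p ^ f` elements so that `G`
acts by semi-affine maps and contains all translations.
-/

set_option autoImplicit false
set_option linter.style.haveILetI false
set_option linter.unusedSectionVars false

namespace Cfsg.Agent.Lib.HalfTrans.Perm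

open Cfsg.Agent.Lib.HalfTrans.Fit Cfsg.Agent.Lib.HalfTrans.Linear

section Elem

variable {G : Type*} [Group G] [Finite G]

/-- A non-trivial solvable group has a non-trivial normal abelian subgroup of prime exponent. -/
theorem exists_normal_elem [Nontrivial G] (hsol : Group.IsSolvable G) :
    ∃ (r : ℕ) (N : Subgroup G), r.Prime ∧ N.Normal ∧ N ≠ ⊥ ∧
      (∀ x ∈ N, ∀ y ∈ N, x * y = y * x) ∧ ∀ x ∈ N, x ^ r = 1 := by
  classical
  -- the last non-trivial term of the derived series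
  have hex : ∃ n, derivedSeries G n = ⊥ := hsol.solvable
  have h0 : derivedSeries G 0 ≠ ⊥ := by
    rw [derivedSeries_zero]
    exact top_ne_bot
  set n := Nat.find hex with hn
  have hn0 : n ≠ 0 := by
    intro h
    apply h0
    have := Nat.find_spec hex
    rwa [← hn, h] at this
  obtain ⟨k, hk⟩ : ∃ k, n = k + 1 := ⟨n - 1, by omega⟩
  have hA0 : derivedSeries G k ≠ ⊥ := Nat.find_min hex (by omega : k < Nat.find hex)
  set A := derivedSeries G k with hA
  have hAn : A.Normal := derivedSeries_normal G k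
  have hAc : ∀ x ∈ A, ∀ y ∈ A, x * y = y * x := by
    have h1 : ⁅A, A⁆ = ⊥ := by
      have h2 : derivedSeries G (k + 1) = ⊥ := by
        rw [← hk]
        exact Nat.find_spec hex
      rwa [derivedSeries_succ] at h2
    intro x hx y hy
    have h3 := Subgroup.commutator_mem_commutator hx hy
    rw [h1, Subgroup.mem_bot] at h3
    exact commutatorElement_eq_one_iff_mul_comm.1 h3
  have hAnt : Nat.card A ≠ 1 := by
    intro h
    exact hA0 ((Subgroup.eq_bot_iff_card A).2 h)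
  obtain ⟨r, hr, hrd⟩ := Nat.exists_prime_and_dvd hAnt
  haveI : Fact r.Prime := ⟨hr⟩
  obtain ⟨a, ha⟩ := exists_prime_orderOf_dvd_card' r hrd
  let N : Subgroup G :=
    { carrier := {x | x ∈ A ∧ x ^ r = 1}
      one_mem' := ⟨A.one_mem, one_pow r⟩
      mul_mem' := by
        rintro x y ⟨hx, hxr⟩ ⟨hy, hyr⟩
        refine ⟨A.mul_mem hx hy, ?_⟩
        have : Commute x y := hAc x hx y hy
        rw [this.mul_pow, hxr, hyr, one_mul]
      inv_mem' := by
        rintro x ⟨hx, hxr⟩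
        exact ⟨A.inv_mem hx, by rw [inv_pow, hxr, inv_one]⟩ }
  refine ⟨r, N, hr, ?_, ?_, fun x hx y hy => hAc x hx.1 y hy.1, fun x hx => hx.2⟩
  · constructor
    rintro x ⟨hx, hxr⟩ g
    refine ⟨hAn.conj_mem x hx g, ?_⟩
    rw [conj_pow, hxr]
    simp
  · intro hbot
    have hmem : (a : G) ∈ N := by
      refine ⟨a.2, ?_⟩
      have h1 : a ^ r = 1 := by rw [← ha]; exact pow_orderOf_eq_one a
      exact congrArg Subtype.val h1
    rw [hbot, Subgroup.mem_bot] at hmem
    have h2 : a = 1 := Subtype.ext hmem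
    rw [h2, orderOf_one] at ha
    exact hr.one_lt.ne ha

end Elem

section VT

variable {G : Type*} [Group G] (N : Subgroup G)

/-- `N`, abelian, as an additive group. -/
def VT (_hc : ∀ x ∈ N, ∀ y ∈ N, x * y = y * x) : Type _ := Additive N

variable {N}

instance instAddCommGroupVT (hc : ∀ x ∈ N, ∀ y ∈ N, x * y = y * x) : AddCommGroup (VT N hc) :=
  { (inferInstance : AddGroup (Additive N)) with
    add_comm := fun a b => by
      apply Additive.toMul.injective
      apply Subtype.ext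
      exact hc _ (Additive.toMul a).2 _ (Additive.toMul b).2 }

/-- The inclusion. -/
def toV (hc : ∀ x ∈ N, ∀ y ∈ N, x * y = y * x) (n : N) : VT N hc := Additive.ofMul n

/-- The element of `N`. -/
def ofV {hc : ∀ x ∈ N, ∀ y ∈ N, x * y = y * x} (v : VT N hc) : N := Additive.toMul v

variable {hc : ∀ x ∈ N, ∀ y ∈ N, x * y = y * x}

@[simp] theorem ofV_toV (n : N) : ofV (toV hc n) = n := rfl
@[simp] theorem toV_ofV (v : VT N hc) : toV hc (ofV v) = v := rfl
theorem ofV_add (v w : VT N hc) : ofV (v + w) = ofV v * ofV w := rfl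
theorem ofV_zero : ofV (0 : VT N hc) = 1 := rfl
theorem toV_mul (x y : N) : toV hc (x * y) = toV hc x + toV hc y := rfl
theorem toV_one : toV hc (1 : N) = 0 := rfl
theorem ofV_injective : Function.Injective (ofV : VT N hc → N) := fun _ _ h => h

theorem ofV_nsmul (k : ℕ) (v : VT N hc) : ofV (k • v) = ofV v ^ k := by
  induction k with
  | zero => simp [ofV_zero]
  | succ k ih => rw [succ_nsmul, ofV_add, ih, pow_succ]

variable [hN : N.Normal] (D : Subgroup G)

/-- Conjugation on `N`. -/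
def conjN (d : D) (n : N) : N := ⟨(d : G) * n * (d : G)⁻¹, hN.conj_mem _ n.2 _⟩

instance instDistribVT : DistribMulAction D (VT N hc) where
  smul d v := toV hc (conjN D d (ofV v))
  one_smul v := by
    apply ofV_injective
    apply Subtype.ext
    change ((1 : D) : G) * ((ofV v : N) : G) * ((1 : D) : G)⁻¹ = ((ofV v : N) : G)
    simp
  mul_smul a b v := by
    apply ofV_injective
    apply Subtype.ext
    change ((a * b : D) : G) * ((ofV v : N) : G) * ((a * b : D) : G)⁻¹ =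
      (a : G) * ((b : G) * ((ofV v : N) : G) * (b : G)⁻¹) * (a : G)⁻¹
    simp only [Subgroup.coe_mul]
    group
  smul_zero a := by
    apply ofV_injective
    apply Subtype.ext
    change (a : G) * ((1 : N) : G) * (a : G)⁻¹ = ((1 : N) : G)
    simp
  smul_add a v w := by
    apply ofV_injective
    apply Subtype.ext
    change (a : G) * (((ofV v : N) : G) * ((ofV w : N) : G)) * (a : G)⁻¹ =
      ((a : G) * ((ofV v : N) : G) * (a : G)⁻¹) * ((a : G) * ((ofV w : N) : G) * (a : G)⁻¹)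
    group

theorem ofV_smul (d : D) (v : VT N hc) :
    ((ofV (d • v) : N) : G) = (d : G) * ((ofV v : N) : G) * (d : G)⁻¹ := rfl

end VT

section Main

variable {G α : Type*} [Group G] [Finite G] [Finite α] [MulAction G α] [FaithfulSMul G α]

/-- **The theorem.** -/
theorem core [Nontrivial G] (a₀ : α) (hodd : Odd (Nat.card G)) (hsol : Group.IsSolvable G)
    (hpair : ∀ {a b c d : α}, a ≠ b → c ≠ d →
      ∃ g : G, (g • a = c ∧ g • b = d) ∨ (g • a = d ∧ g • b = c)) :
    ∃ (p f : ℕ) (_ : Fact p.Prime), p ≠ 2 ∧ Nat.card α = p ^ f ∧ p ^ f % 4 = 3 ∧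
      ∃ e : α ≃ GaloisField p f,
        (∀ g : G, ∃ (a : (GaloisField p f)ˣ) (b : GaloisField p f)
          (σ : GaloisField p f ≃+* GaloisField p f), ∀ x, e (g • x) = (a : GaloisField p f) * σ (e x) + b) ∧
        ∀ b : GaloisField p f, ∃ g : G, ∀ x, e (g • x) = e x + b := by
  classical
  obtain ⟨r, N, hr, hNn, hN0, hc, hexp⟩ := exists_normal_elem hsol
  haveI : Fact r.Prime := ⟨hr⟩
  haveI := hNn
  obtain ⟨n₀, hn₀, hn₀1⟩ : ∃ n₀ ∈ N, n₀ ≠ 1 := by
    obtain ⟨⟨n, hn⟩, hn1⟩ := (Subgroup.ne_bot_iff_exists_ne_one).1 hN0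
    exact ⟨n, hn, fun h => hn1 (Subtype.ext h)⟩
  -- `r` is odd
  have hr2 : r ≠ 2 := by
    rintro rfl
    have h1 : orderOf n₀ = 2 := orderOf_eq_prime (hexp _ hn₀) hn₀1
    have h2 : 2 ∣ Nat.card G := h1 ▸ orderOf_dvd_natCard n₀
    exact (Nat.not_even_iff_odd.2 hodd) (even_iff_two_dvd.2 h2)
  -- `N` is transitive
  have htr : ∀ c d : α, ∃ n ∈ N, n • c = d := by
    intro c d
    by_cases hcd : c = d
    · exact ⟨1, N.one_mem, by simp [hcd]⟩
    obtain ⟨u, hu⟩ : ∃ u : α, n₀ • u ≠ u := by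
      by_contra hcon
      push Not at hcon
      apply hn₀1
      apply FaithfulSMul.eq_of_smul_eq_smul (α := α)
      intro x
      rw [hcon, one_smul]
    obtain ⟨g, hg⟩ := hpair (a := u) (b := n₀ • u) (c := c) (d := d) (Ne.symm hu) hcd
    rcases hg with ⟨h1, h2⟩ | ⟨h1, h2⟩
    · refine ⟨g * n₀ * g⁻¹, hNn.conj_mem _ hn₀ g, ?_⟩
      rw [← h1, ← h2]
      simp [mul_smul]
    · refine ⟨g * n₀⁻¹ * g⁻¹, hNn.conj_mem _ (N.inv_mem hn₀) g, ?_⟩
      rw [← h1, ← h2]
      simp [mul_smul]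
  -- `N` is regular
  have hreg : ∀ m ∈ N, m • a₀ = a₀ → m = 1 := by
    intro m hm hma
    apply FaithfulSMul.eq_of_smul_eq_smul (α := α)
    intro x
    obtain ⟨m', hm', rfl⟩ := htr a₀ x
    rw [← mul_smul, hc m hm m' hm', mul_smul, hma, one_smul]
  have hreg' : ∀ m ∈ N, ∀ m' ∈ N, m • a₀ = m' • a₀ → m = m' := by
    intro m hm m' hm' h
    have h1 : (m'⁻¹ * m) • a₀ = a₀ := by rw [mul_smul, h, inv_smul_smul]
    have h2 := hreg _ (N.mul_mem (N.inv_mem hm') hm) h1
    exact (inv_mul_eq_one.1 h2).symm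
  -- the point stabilizer
  let D : Subgroup G := MulAction.stabilizer G a₀
  have hmemD : ∀ {g : G}, g ∈ D ↔ g • a₀ = a₀ := Iff.rfl
  let E := VT N hc
  have hfinE : Finite E := inferInstanceAs (Finite (Additive N))
  have hNt : Nontrivial E := by
    refine ⟨toV hc ⟨n₀, hn₀⟩, 0, fun h => hn₀1 ?_⟩
    exact congrArg (fun v : E => ((ofV v : N) : G)) h
  have hfaith : FaithfulSMul D E := by
    refine ⟨fun {d d'} h => ?_⟩
    have h1 : (d'⁻¹ * d : D) = 1 := by
      apply Subtype.ext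
      apply FaithfulSMul.eq_of_smul_eq_smul (α := α)
      intro x
      obtain ⟨m, hm, rfl⟩ := htr a₀ x
      have h2 := h (toV hc ⟨m, hm⟩)
      have h3 : (d : G) * m * (d : G)⁻¹ = (d' : G) * m * (d' : G)⁻¹ :=
        congrArg (fun v : E => ((ofV v : N) : G)) h2
      have h4 : (d : G) * m = (d' : G) * m * (d' : G)⁻¹ * (d : G) := by
        rw [← h3]; group
      have hd : (d : G) • a₀ = a₀ := d.2
      have hd' : (d' : G) • a₀ = a₀ := d'.2
      have hd'' : (d' : G)⁻¹ • a₀ = a₀ := by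
        rw [inv_smul_eq_iff, hd']
      have h5 : (((d'⁻¹ * d : D) : G)) • (m • a₀) = m • a₀ := by
        simp only [Subgroup.coe_mul, Subgroup.coe_inv]
        rw [← mul_smul, mul_assoc, h4]
        have h6 : (d' : G)⁻¹ * ((d' : G) * m * (d' : G)⁻¹ * (d : G)) = m * ((d' : G)⁻¹ * (d : G)) := by
          group
        rw [h6, mul_smul, mul_smul, hd, hd'']
      rw [h5]
      simp
    have h2 : d = d' := (inv_mul_eq_one.1 h1).symm
    exact h2
  have hoddD : Odd (Nat.card D) := Odd.of_dvd_nat hodd (Subgroup.card_subgroup_dvd_card D)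
  have hsolD : Group.IsSolvable D := inferInstance
  have hE : ∀ v : E, r • v = 0 := by
    intro v
    apply ofV_injective
    rw [ofV_nsmul]
    apply Subtype.ext
    have h1 := hexp _ (ofV v).2
    simpa [ofV_zero] using h1
  have hHT : HalfTrans D E := by
    intro v w hv hw
    set n₁ : N := ofV v with hn₁
    set n₂ : N := ofV w with hn₂
    have hn₁1 : (n₁ : G) ≠ 1 := by
      intro h
      apply hv
      apply ofV_injective
      exact Subtype.ext h
    have hn₂1 : (n₂ : G) ≠ 1 := by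
      intro h
      apply hw
      apply ofV_injective
      exact Subtype.ext h
    have hne₁ : a₀ ≠ (n₁ : G) • a₀ := fun h => hn₁1 (hreg _ n₁.2 h.symm)
    have hne₂ : a₀ ≠ (n₂ : G) • a₀ := fun h => hn₂1 (hreg _ n₂.2 h.symm)
    obtain ⟨g, hg⟩ := hpair hne₁ hne₂
    rcases hg with ⟨h1, h2⟩ | ⟨h1, h2⟩
    · refine ⟨⟨g, h1⟩, Or.inl ?_⟩
      apply ofV_injective
      apply Subtype.ext
      rw [ofV_smul]
      apply hreg' _ (hNn.conj_mem _ (ofV v).2 _) _ (ofV w).2
      have h3 : g⁻¹ • a₀ = a₀ := by rw [inv_smul_eq_iff, h1]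
      simp only [mul_smul, h3]
      exact h2
    · have hd : n₂⁻¹.1 * g ∈ D := by
        rw [hmemD, mul_smul, h1]
        simp
      refine ⟨⟨(n₂ : G)⁻¹ * g, by simpa using hd⟩, Or.inr ?_⟩
      apply ofV_injective
      apply Subtype.ext
      rw [ofV_smul]
      have h4 : ((ofV (-w) : N) : G) = (n₂ : G)⁻¹ := rfl
      rw [h4]
      apply hreg' _ (hNn.conj_mem _ (ofV v).2 _) _ (N.inv_mem n₂.2)
      have hdd : ((n₂ : G)⁻¹ * g) • a₀ = a₀ := by
        rw [mul_smul, h1, inv_smul_smul]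
      have h3 : ((n₂ : G)⁻¹ * g)⁻¹ • a₀ = a₀ := by rw [inv_smul_eq_iff, hdd]
      simp only [mul_smul (((n₂ : G)⁻¹ * g) * _) _ a₀, h3]
      rw [mul_smul, mul_smul, h2]
  obtain ⟨f, hcardE, hmod, e₀, he₀⟩ := main_linear hoddD hHT hr2 hE hsolD
  -- the identification of `α` with `N`
  let pt : N → α := fun n => (n : G) • a₀
  have hpt : Function.Bijective pt := by
    constructor
    · intro m m' h
      exact Subtype.ext (hreg' _ m.2 _ m'.2 h)
    · intro x
      obtain ⟨m, hm, rfl⟩ := htr a₀ x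
      exact ⟨⟨m, hm⟩, rfl⟩
  let E₁ : N ≃ α := Equiv.ofBijective pt hpt
  let E₂ : N ≃ E := ⟨toV hc, ofV, fun _ => rfl, fun _ => rfl⟩
  have hcardα : Nat.card α = r ^ f := by
    rw [← Nat.card_congr E₁, Nat.card_congr E₂]
    exact hcardE
  let e : α ≃ GaloisField r f := E₁.symm.trans (E₂.trans e₀.toEquiv)
  have he : ∀ n : N, e ((n : G) • a₀) = e₀ (toV hc n) := by
    intro n
    have h1 : E₁.symm ((n : G) • a₀) = n := E₁.symm_apply_apply n
    change e₀ (toV hc (E₁.symm ((n : G) • a₀))) = _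
    rw [h1]
  refine ⟨r, f, ⟨hr⟩, hr2, hcardα, hmod, e, ?_, ?_⟩
  · intro g
    obtain ⟨n, hn, hna⟩ := htr a₀ (g • a₀)
    have hd : n⁻¹ * g ∈ D := by
      rw [hmemD, mul_smul, ← hna, inv_smul_smul]
    obtain ⟨a, σ, hσ⟩ := he₀ ⟨n⁻¹ * g, hd⟩
    refine ⟨a, e₀ (toV hc ⟨n, hn⟩), σ, ?_⟩
    intro x
    obtain ⟨m, hm, rfl⟩ := htr a₀ x
    have h1 : g • (m • a₀) = (((⟨n, hn⟩ : N) * conjN D ⟨n⁻¹ * g, hd⟩ ⟨m, hm⟩ : N) : G) • a₀ := by
      have hdd : (n⁻¹ * g)⁻¹ • a₀ = a₀ := by
        rw [inv_smul_eq_iff]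
        exact hd.symm
      change g • (m • a₀) = (n * ((n⁻¹ * g) * m * (n⁻¹ * g)⁻¹)) • a₀
      rw [mul_smul, mul_smul, hdd, ← mul_smul, ← mul_smul, ← mul_assoc, mul_inv_cancel_left]
    have h2 : e (m • a₀) = e₀ (toV hc ⟨m, hm⟩) := he ⟨m, hm⟩
    rw [h1, he, toV_mul, map_add, h2, add_comm, ← hσ]
    rfl
  · intro b
    set n : N := ofV (e₀.symm b) with hn
    refine ⟨n, ?_⟩
    intro x
    obtain ⟨m, hm, rfl⟩ := htr a₀ x
    have h1 : (n : G) • (m • a₀) = ((n * ⟨m, hm⟩ : N) : G) • a₀ := by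
      rw [← mul_smul]
      rfl
    have h2 : e (m • a₀) = e₀ (toV hc ⟨m, hm⟩) := he ⟨m, hm⟩
    have h3 : e₀ (toV hc n) = b := by
      rw [hn, toV_ofV]
      exact e₀.apply_symm_apply b
    rw [h1, he, toV_mul, map_add, h2, h3, add_comm]

end Main

end Cfsg.Agent.Lib.HalfTrans.Perm
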